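import Cfsg.Agent.Lib.RankOne.OddInv
import Mathlib.GroupTheory.GroupAction.MultipleTransitivity
import Mathlib.GroupTheory.Perm.Cycle.Type

/-!
The split rank-one set-up: regularity, canonical form, involutions.
-/

set_option autoImplicit false

namespace CfsgLib.RankOne

open MulAction

variable {G Ω : Type*} [Group G] [MulAction G Ω]

/-- The two-point stabiliser of the set-up. -/
abbrev twoPoint (G : Type*) {Ω : Type*} [Group G] [MulAction G Ω] (a : Ω) (t : G) : Subgroup G :=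
  stabilizer G a ⊓ stabilizer G (t • a)

variable {a : Ω} {t : G} {Q : Subgroup G}

theorem t_inv (hS : Cfsg.IsRankOneSetup G Ω a t Q) : t⁻¹ = t :=
  inv_eq_of_mul_eq_one_right hS.mul_self

theorem ta_ne (hS : Cfsg.IsRankOneSetup G Ω a t Q) : t • a ≠ a := hS.not_mem

theorem tta (hS : Cfsg.IsRankOneSetup G Ω a t Q) (b : Ω) : t • t • b = b := by
  rw [← mul_smul, hS.mul_self, one_smul]

theorem Q_fix (hS : Cfsg.IsRankOneSetup G Ω a t Q) {x : G} (hx : x ∈ Q) : x • a = a := hS.le hx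

theorem exists_map_pair (hS : Cfsg.IsRankOneSetup G Ω a t Q) {b c b' c' : Ω} (h : b ≠ c)
    (h' : b' ≠ c') : ∃ g : G, g • b = b' ∧ g • c = c' :=
  MulAction.is_two_pretransitive_iff.1 hS.two_transitive h h'

theorem exists_map (hS : Cfsg.IsRankOneSetup G Ω a t Q) (b : Ω) : ∃ g : G, g • a = b := by
  by_cases h : b = a
  · exact ⟨1, by rw [h, one_smul]⟩
  · obtain ⟨g, hg, -⟩ := exists_map_pair hS (ta_ne hS).symm h
    exact ⟨g, hg⟩

theorem finite_space (hS : Cfsg.IsRankOneSetup G Ω a t Q) [Finite G] : Finite Ω :=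
  Finite.of_surjective (fun g : G => g • a) (exists_map hS)

theorem conj_mem_Q (hS : Cfsg.IsRankOneSetup G Ω a t Q) {h x : G} (hh : h • a = a) (hx : x ∈ Q) :
    h * x * h⁻¹ ∈ Q := hS.conj_mem h hh x hx

theorem conj_inv_mem_Q (hS : Cfsg.IsRankOneSetup G Ω a t Q) {h x : G} (hh : h • a = a)
    (hx : x ∈ Q) : h⁻¹ * x * h ∈ Q := by
  have := conj_mem_Q hS (h := h⁻¹) (inv_smul_eq_iff.2 hh.symm) hx
  simpa using this

theorem exists_factor (hS : Cfsg.IsRankOneSetup G Ω a t Q) {h : G} (hh : h • a = a) :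
    ∃ q ∈ Q, ∃ d ∈ twoPoint G a t, h = q * d := by
  have hD : twoPoint G a t ≤ Subgroup.normalizer (Q : Set G) := by
    intro d hd
    rw [Subgroup.mem_normalizer_iff]
    intro x
    refine ⟨fun hx => conj_mem_Q hS hd.1 hx, fun hx => ?_⟩
    have := conj_inv_mem_Q hS hd.1 hx
    simpa [mul_assoc] using this
  have h1 : h ∈ ((Q ⊔ twoPoint G a t : Subgroup G) : Set G) := by
    rw [hS.sup_eq]; exact hh
  rw [Subgroup.coe_mul_of_right_le_normalizer_left Q (twoPoint G a t) hD] at h1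
  obtain ⟨q, hq, d, hd, e⟩ := h1
  exact ⟨q, hq, d, hd, e.symm⟩

theorem exists_Q_map (hS : Cfsg.IsRankOneSetup G Ω a t Q) {b : Ω} (hb : b ≠ a) :
    ∃ q ∈ Q, q • t • a = b := by
  obtain ⟨h, hh, hhb⟩ := exists_map_pair hS (ta_ne hS).symm hb.symm
  obtain ⟨q, hq, d, hd, rfl⟩ := exists_factor hS hh
  have e : d • t • a = t • a := hd.2
  exact ⟨q, hq, by rw [← hhb, mul_smul, e]⟩

theorem eq_one_of_fix (hS : Cfsg.IsRankOneSetup G Ω a t Q) {x : G} (hx : x ∈ Q) {b : Ω}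
    (hb : b ≠ a) (hxb : x • b = b) : x = 1 := by
  obtain ⟨q, hq, rfl⟩ := exists_Q_map hS hb
  have h1 : q⁻¹ * x * q ∈ Q ⊓ stabilizer G (t • a) :=
    ⟨Q.mul_mem (Q.mul_mem (Q.inv_mem hq) hx) hq, by
      show (q⁻¹ * x * q) • t • a = t • a
      rw [mul_smul, mul_smul, hxb, inv_smul_smul]⟩
  rw [hS.inf_eq_bot, Subgroup.mem_bot] at h1
  calc x = q * (q⁻¹ * x * q) * q⁻¹ := by group
    _ = 1 := by rw [h1]; group

theorem fixed_eq (hS : Cfsg.IsRankOneSetup G Ω a t Q) {x : G} (hx : x ∈ Q) (hx1 : x ≠ 1) {b : Ω}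
    (hxb : x • b = b) : b = a := by
  by_contra hb
  exact hx1 (eq_one_of_fix hS hx hb hxb)

theorem Q_inj (hS : Cfsg.IsRankOneSetup G Ω a t Q) {x y : G} (hx : x ∈ Q) (hy : y ∈ Q) {b : Ω}
    (hb : b ≠ a) (h : x • b = y • b) : x = y := by
  have := eq_one_of_fix hS (Q.mul_mem (Q.inv_mem hy) hx) hb
    (by rw [mul_smul, h, inv_smul_smul])
  exact (inv_mul_eq_one.1 this).symm

theorem existsUnique_Q_map (hS : Cfsg.IsRankOneSetup G Ω a t Q) {b c : Ω} (hb : b ≠ a)
    (hc : c ≠ a) : ∃! x : Q, (x : G) • b = c := by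
  obtain ⟨p, hp, hpb⟩ := exists_Q_map hS hb
  obtain ⟨q, hq, hqc⟩ := exists_Q_map hS hc
  refine ⟨⟨q * p⁻¹, Q.mul_mem hq (Q.inv_mem hp)⟩, ?_, fun y hy => Subtype.ext ?_⟩
  · show (q * p⁻¹) • b = c
    rw [← hpb, mul_smul, inv_smul_smul, hqc]
  · exact Q_inj hS y.2 (Q.mul_mem hq (Q.inv_mem hp)) hb
      (hy.trans (by rw [← hpb, mul_smul, inv_smul_smul, hqc]))

theorem smul_ne_a (hS : Cfsg.IsRankOneSetup G Ω a t Q) {x : G} (hx : x ∈ Q) {b : Ω} (hb : b ≠ a) :
    x • b ≠ a := fun h => hb (by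
  have e := congrArg (x⁻¹ • ·) h
  simpa [inv_smul_eq_iff.2 (Q_fix hS hx).symm] using e)

/-- `Q` is in bijection with the points other than `a`. -/
noncomputable def regEquiv (hS : Cfsg.IsRankOneSetup G Ω a t Q) : Q ≃ {b : Ω // b ≠ a} :=
  Equiv.ofBijective (fun q => ⟨(q : G) • t • a, smul_ne_a hS q.2 (ta_ne hS)⟩)
    ⟨fun p q h => Subtype.ext (Q_inj hS p.2 q.2 (ta_ne hS) (congrArg Subtype.val h)),
      fun b => by
        obtain ⟨q, hq, h⟩ := exists_Q_map hS b.2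
        exact ⟨⟨q, hq⟩, Subtype.ext h⟩⟩

theorem regEquiv_apply (hS : Cfsg.IsRankOneSetup G Ω a t Q) (q : Q) :
    ((regEquiv hS q : {b : Ω // b ≠ a}) : Ω) = (q : G) • t • a := rfl

theorem card_space (hS : Cfsg.IsRankOneSetup G Ω a t Q) [Finite G] :
    Nat.card Ω = Nat.card Q + 1 := by
  have := finite_space hS
  classical
  rw [Nat.card_congr (regEquiv hS),
    ← Nat.card_congr (Equiv.optionSubtypeNe a), Finite.card_option]

theorem canonical_unique (hS : Cfsg.IsRankOneSetup G Ω a t Q) {x x' y y' : G} (hx : x • a = a)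
    (hx' : x' • a = a) (hy : y ∈ Q) (hy' : y' ∈ Q) (h : x * t * y = x' * t * y') :
    x = x' ∧ y = y' := by
  have e : (x * t * y)⁻¹ • a = (x' * t * y')⁻¹ • a := by rw [h]
  simp only [mul_inv_rev, mul_smul, inv_smul_eq_iff.2 hx.symm, inv_smul_eq_iff.2 hx'.symm,
    t_inv hS] at e
  have e2 : y⁻¹ = y'⁻¹ := Q_inj hS (Q.inv_mem hy) (Q.inv_mem hy') (ta_ne hS) e
  have e3 : y = y' := inv_injective e2
  subst e3
  exact ⟨mul_right_cancel (mul_right_cancel h), rfl⟩

theorem exists_canonical (hS : Cfsg.IsRankOneSetup G Ω a t Q) {g : G} (hg : g • a ≠ a) :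
    ∃ x y : G, x • a = a ∧ y ∈ Q ∧ g = x * t * y := by
  have hne : g⁻¹ • a ≠ a := fun h => hg (inv_smul_eq_iff.1 h).symm
  obtain ⟨q, hq, hqa⟩ := exists_Q_map hS hne
  refine ⟨g * q * t, q⁻¹, ?_, Q.inv_mem hq, ?_⟩
  · rw [mul_smul, mul_smul, hqa, smul_inv_smul]
  · calc g = g * q * (t * t) * q⁻¹ := by rw [hS.mul_self]; group
      _ = g * q * t * t * q⁻¹ := by group

theorem canonical_D_unique (hS : Cfsg.IsRankOneSetup G Ω a t Q) {g g' h h' f f' : G} (hg : g ∈ Q)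
    (hg' : g' ∈ Q) (hh : h ∈ twoPoint G a t) (hh' : h' ∈ twoPoint G a t) (hf : f ∈ Q)
    (hf' : f' ∈ Q) (e : g * h * t * f = g' * h' * t * f') : g = g' ∧ h = h' ∧ f = f' := by
  have hga : (g * h) • a = a := by rw [mul_smul, show h • a = a from hh.1, Q_fix hS hg]
  have hga' : (g' * h') • a = a := by rw [mul_smul, show h' • a = a from hh'.1, Q_fix hS hg']
  obtain ⟨e1, e2⟩ := canonical_unique hS hga hga' hf hf' e
  have e3 : g = g' := by
    refine Q_inj hS hg hg' (ta_ne hS) ?_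
    have e4 := congrArg (· • t • a) e1
    simp only [mul_smul] at e4
    rwa [show h • t • a = t • a from hh.2, show h' • t • a = t • a from hh'.2] at e4
  subst e3
  exact ⟨rfl, mul_left_cancel e1, e2⟩

theorem twoPoint_conj (hS : Cfsg.IsRankOneSetup G Ω a t Q) {d : G} (hd : d ∈ twoPoint G a t) :
    t * d * t⁻¹ ∈ twoPoint G a t := by
  rw [t_inv hS]
  refine ⟨?_, ?_⟩
  · show (t * d * t) • a = a
    rw [mul_smul, mul_smul, show d • t • a = t • a from hd.2, tta hS]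
  · show (t * d * t) • t • a = t • a
    rw [mul_smul, mul_smul, tta hS, show d • a = a from hd.1]

theorem card_stabilizer (hS : Cfsg.IsRankOneSetup G Ω a t Q) :
    Nat.card (stabilizer G a) = Nat.card Q * Nat.card (twoPoint G a t) := by
  rw [← Nat.card_prod]
  refine (Nat.card_eq_of_bijective (fun p : Q × twoPoint G a t =>
    (⟨(p.1 : G) * p.2, (stabilizer G a).mul_mem (hS.le p.1.2) p.2.2.1⟩ : stabilizer G a)) ⟨?_, ?_⟩).symm
  · rintro ⟨q, d⟩ ⟨q', d'⟩ h
    have h' : (q : G) * d = q' * d' := congrArg Subtype.val h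
    have e : (q : G) = q' := by
      refine Q_inj hS q.2 q'.2 (ta_ne hS) ?_
      have := congrArg (· • t • a) h'
      simp only [mul_smul] at this
      rwa [show (d : G) • t • a = t • a from d.2.2, show (d' : G) • t • a = t • a from d'.2.2] at this
    rw [e] at h'
    exact Prod.ext (Subtype.ext e) (Subtype.ext (mul_left_cancel h'))
  · rintro ⟨h, hh⟩
    obtain ⟨q, hq, d, hd, rfl⟩ := exists_factor hS hh
    exact ⟨(⟨q, hq⟩, ⟨d, hd⟩), rfl⟩

theorem card_group (hS : Cfsg.IsRankOneSetup G Ω a t Q) [Finite G] :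
    Nat.card G = Nat.card Q * Nat.card (twoPoint G a t) * (Nat.card Q + 1) := by
  rw [← card_stabilizer hS, ← card_space hS, ← Subgroup.card_mul_index (stabilizer G a)]
  congr 1
  have := finite_space hS
  have : MulAction.IsPretransitive G Ω := ⟨fun b c => by
    obtain ⟨g, hg⟩ := exists_map hS b
    obtain ⟨k, hk⟩ := exists_map hS c
    exact ⟨k * g⁻¹, by rw [← hg, mul_smul, inv_smul_smul, hk]⟩⟩
  exact MulAction.index_stabilizer_of_transitive G a

theorem sylow_le (hS : Cfsg.IsRankOneSetup G Ω a t Q) [Finite G] :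
    ∃ P : Sylow 2 G, (P : Subgroup G) ≤ Q := by
  obtain ⟨P₀⟩ : Nonempty (Sylow 2 Q) := inferInstance
  have hP : IsPGroup 2 ((P₀ : Subgroup Q).map Q.subtype) := P₀.2.map _
  refine ⟨hP.toSylow ?_, fun x hx => ?_⟩
  swap
  · obtain ⟨y, -, rfl⟩ := Subgroup.mem_map.1 hx
    exact y.2
  · have hP0 : ¬ 2 ∣ (P₀ : Subgroup Q).index := P₀.not_dvd_index
    rw [Subgroup.index_map_subtype]
    intro hdvd
    rcases (Nat.Prime.dvd_mul Nat.prime_two).1 hdvd with h | h
    · exact hP0 h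
    · have hindex : Q.index = Nat.card (twoPoint G a t) * (Nat.card Q + 1) := by
        have h1 := Subgroup.card_mul_index Q
        rw [card_group hS, mul_assoc] at h1
        exact Nat.eq_of_mul_eq_mul_left Nat.card_pos h1
      rw [hindex] at h
      rcases (Nat.Prime.dvd_mul Nat.prime_two).1 h with h | h
      · exact (Nat.not_even_iff_odd.2 hS.odd_card) (even_iff_two_dvd.2 h)
      · exact (Nat.not_even_iff_odd.2 (hS.even_card.add_one)) (even_iff_two_dvd.2 h)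

theorem Q_ne_bot (hS : Cfsg.IsRankOneSetup G Ω a t Q) [Finite G] : ∃ s ∈ Q, s ≠ 1 ∧ s * s = 1 := by
  have h2 : 2 ∣ Nat.card Q := even_iff_two_dvd.1 hS.even_card
  obtain ⟨s, hs⟩ := exists_prime_orderOf_dvd_card' 2 h2
  refine ⟨s, s.2, ?_, ?_⟩
  · intro h
    have h' : s = 1 := Subtype.ext h
    rw [h', orderOf_one] at hs
    omega
  · have := pow_orderOf_eq_one s
    rw [hs, pow_two] at this
    exact congrArg Subtype.val this

theorem involution_mem_Q (hS : Cfsg.IsRankOneSetup G Ω a t Q) {s : G} (hs : s • a = a)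
    (hs2 : s * s = 1) : s ∈ Q := by
  obtain ⟨q, hq, d, hd, rfl⟩ := exists_factor hS hs
  have hdd : d * d = 1 := by
    have h1 : d * d ∈ Q := by
      have h2 : d * q * d⁻¹ ∈ Q := conj_mem_Q hS hd.1 hq
      have e : d * d = (d * q * d⁻¹)⁻¹ * q⁻¹ := by
        calc d * d = (d * q * d⁻¹)⁻¹ * q⁻¹ * ((q * d) * (q * d)) := by group
          _ = _ := by rw [hs2, mul_one]
      rw [e]
      exact Q.mul_mem (Q.inv_mem h2) (Q.inv_mem hq)
    have h3 : d * d ∈ Q ⊓ stabilizer G (t • a) :=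
      ⟨h1, (stabilizer G (t • a)).mul_mem hd.2 hd.2⟩
    rwa [hS.inf_eq_bot, Subgroup.mem_bot] at h3
  rw [eq_one_of_mul_self_eq_one hS.odd_card hd hdd, mul_one]
  exact hq

theorem exists_fixed_point (hS : Cfsg.IsRankOneSetup G Ω a t Q) [Finite G] {u : G}
    (hu : u * u = 1) : ∃ b : Ω, u • b = b := by
  have := finite_space hS
  classical
  have := Fintype.ofFinite Ω
  have hodd : ¬ 2 ∣ Fintype.card Ω := by
    rw [← Nat.card_eq_fintype_card, card_space hS]
    exact fun h => Nat.not_even_iff_odd.2 hS.even_card.add_one (even_iff_two_dvd.2 h)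
  obtain ⟨b, hb⟩ := Equiv.Perm.exists_fixed_point_of_prime (n := 1) hodd
    (σ := MulAction.toPerm u) (by
      rw [pow_one, pow_two]
      ext b
      simp [← mul_smul, hu])
  exact ⟨b, hb⟩

/-- Every involution fixes exactly one point. -/
theorem involution_fixed_unique (hS : Cfsg.IsRankOneSetup G Ω a t Q) {u : G} (hu1 : u ≠ 1)
    (hu : u * u = 1) {b c : Ω} (hb : u • b = b) (hc : u • c = c) : b = c := by
  obtain ⟨g, rfl⟩ := exists_map hS b
  have hs : g⁻¹ * u * g ∈ Q := by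
    refine involution_mem_Q hS (by rw [mul_smul, mul_smul, hb, inv_smul_smul]) ?_
    calc g⁻¹ * u * g * (g⁻¹ * u * g) = g⁻¹ * (u * u) * g := by group
      _ = 1 := by rw [hu]; group
  have hs1 : g⁻¹ * u * g ≠ 1 := by
    intro h
    apply hu1
    calc u = g * (g⁻¹ * u * g) * g⁻¹ := by group
      _ = 1 := by rw [h]; group
  have := fixed_eq hS hs hs1 (b := g⁻¹ • c) (by rw [mul_smul, mul_smul, smul_inv_smul, hc])
  rw [← this, smul_inv_smul]

theorem commute_fix (hS : Cfsg.IsRankOneSetup G Ω a t Q) {u z : G} (hu1 : u ≠ 1)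
    (hu : u * u = 1) (hz : u * z = z * u) {b : Ω} (hb : u • b = b) : z • b = b :=
  involution_fixed_unique hS hu1 hu (by rw [← mul_smul, hz, mul_smul, hb]) hb

theorem odd_orderOf_mul (hS : Cfsg.IsRankOneSetup G Ω a t Q) [Finite G] {s u : G} (hs : s • a = a)
    (hs1 : s ≠ 1) (hs2 : s * s = 1) (hu : u • a ≠ a) (hu2 : u * u = 1) :
    Odd (orderOf (s * u)) := by
  have hu1 : u ≠ 1 := fun h => hu (by rw [h, one_smul])
  by_contra hodd
  obtain ⟨m, hm⟩ : Even (orderOf (s * u)) := Nat.not_odd_iff_even.1 hodd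
  have hpos := orderOf_pos (s * u)
  set z := (s * u) ^ m with hz
  have hzz : z * z = 1 := by rw [hz, ← pow_add, ← hm, pow_orderOf_eq_one]
  have hz1 : z ≠ 1 := fun h => by
    have := Nat.le_of_dvd (by omega) (orderOf_dvd_of_pow_eq_one (hz ▸ h))
    omega
  have hsinv : s⁻¹ = s := inv_eq_of_mul_eq_one_right hs2
  have huinv : u⁻¹ = u := inv_eq_of_mul_eq_one_right hu2
  have hinvz : z⁻¹ = z := inv_eq_of_mul_eq_one_right hzz
  have hcs : s * z = z * s := by
    have h1 : s * z * s⁻¹ = z⁻¹ := by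
      rw [hz, ← conj_pow, ← inv_pow]
      congr 1
      rw [mul_inv_rev, huinv, hsinv]
      calc s * (s * u) * s = (s * s) * u * s := by group
        _ = u * s := by rw [hs2, one_mul]
    rw [hinvz, mul_inv_eq_iff_eq_mul] at h1
    exact h1
  have hza := commute_fix hS hs1 hs2 hcs hs
  have hcu : z * u = u * z := by
    have h1 : u * z * u⁻¹ = z⁻¹ := by
      rw [hz, ← conj_pow, ← inv_pow]
      congr 1
      rw [mul_inv_rev, huinv, hsinv]
      calc u * (s * u) * u = u * s * (u * u) := by group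
        _ = u * s := by rw [hu2, mul_one]
    rw [hinvz, mul_inv_eq_iff_eq_mul] at h1
    exact h1.symm
  exact hu (commute_fix hS hz1 hzz hcu hza)

theorem conj_of_odd {s u : G} (hs : s * s = 1) (hu : u * u = 1) (h : Odd (orderOf (s * u))) :
    ∃ g : G, g * s * g⁻¹ = u := by
  obtain ⟨m, hm⟩ := h
  refine ⟨(s * u) ^ m, ?_⟩
  have hsinv : s⁻¹ = s := inv_eq_of_mul_eq_one_right hs
  have huinv : u⁻¹ = u := inv_eq_of_mul_eq_one_right hu
  have h1 : s * ((s * u) ^ m)⁻¹ * s⁻¹ = (s * u) ^ m := by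
    rw [← inv_pow, ← conj_pow]
    congr 1
    rw [mul_inv_rev, huinv, hsinv]
    calc s * (u * s) * s = s * u * (s * s) := by group
      _ = s * u := by rw [hs, mul_one]
  have h2 : (s * u) ^ (m + m) = (s * u)⁻¹ := by
    refine eq_inv_of_mul_eq_one_left ?_
    rw [← pow_succ, show m + m + 1 = 2 * m + 1 by omega, ← hm, pow_orderOf_eq_one]
  calc (s * u) ^ m * s * ((s * u) ^ m)⁻¹
      = (s * u) ^ m * (s * ((s * u) ^ m)⁻¹ * s⁻¹) * s := by group
    _ = (s * u)⁻¹ * s := by rw [h1, ← pow_add, h2]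
    _ = u := by rw [mul_inv_rev, huinv]; group

theorem conj_to_t (hS : Cfsg.IsRankOneSetup G Ω a t Q) [Finite G] {u : G} (hu1 : u ≠ 1)
    (hu : u * u = 1) : ∃ g : G, g * u * g⁻¹ = t := by
  obtain ⟨b, hb⟩ := exists_fixed_point hS hu
  obtain ⟨g, rfl⟩ := exists_map hS b
  have hs : (g⁻¹ * u * g) • a = a := by rw [mul_smul, mul_smul, hb, inv_smul_smul]
  have hs2 : g⁻¹ * u * g * (g⁻¹ * u * g) = 1 := by
    calc g⁻¹ * u * g * (g⁻¹ * u * g) = g⁻¹ * (u * u) * g := by group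
      _ = 1 := by rw [hu]; group
  have hs1 : g⁻¹ * u * g ≠ 1 := by
    intro h
    apply hu1
    calc u = g * (g⁻¹ * u * g) * g⁻¹ := by group
      _ = 1 := by rw [h]; group
  obtain ⟨k, hk⟩ := conj_of_odd hs2 hS.mul_self (odd_orderOf_mul hS hs hs1 hs2 (ta_ne hS) hS.mul_self)
  exact ⟨k * g⁻¹, by rw [← hk]; group⟩

theorem conj_involutions (hS : Cfsg.IsRankOneSetup G Ω a t Q) [Finite G] {u v : G} (hu1 : u ≠ 1)
    (hu : u * u = 1) (hv1 : v ≠ 1) (hv : v * v = 1) : ∃ g : G, g * u * g⁻¹ = v := by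
  obtain ⟨g, hg⟩ := conj_to_t hS hu1 hu
  obtain ⟨k, hk⟩ := conj_to_t hS hv1 hv
  refine ⟨k⁻¹ * g, ?_⟩
  calc k⁻¹ * g * u * (k⁻¹ * g)⁻¹ = k⁻¹ * (g * u * g⁻¹) * k := by group
    _ = v := by rw [hg, ← hk]; group

theorem odd_normal_fix (hS : Cfsg.IsRankOneSetup G Ω a t Q) [Finite G]
    (h2 : ∃ x y : G, x ≠ 1 ∧ y ≠ 1 ∧ x ≠ y ∧ x * x = 1 ∧ y * y = 1 ∧ x * y = y * x)
    {M : Subgroup G} (hM : M.Normal) (hodd : Odd (Nat.card M)) : M ≤ stabilizer G a := by
  obtain ⟨x, y, hx1, hy1, hxy, hxx, hyy, hc⟩ := h2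
  obtain ⟨b, hb⟩ := exists_fixed_point hS hxx
  have hxy1 : x * y ≠ 1 := fun h => hxy (by rw [← inv_eq_of_mul_eq_one_right h, inv_eq_of_mul_eq_one_right hxx])
  have hxyxy : x * y * (x * y) = 1 := by
    calc x * y * (x * y) = x * (y * x) * y := by group
      _ = (x * x) * (y * y) := by rw [← hc]; group
      _ = 1 := by rw [hxx, hyy, mul_one]
  have hyb : y • b = b := commute_fix hS hx1 hxx hc hb
  have hxyb : (x * y) • b = b := by rw [mul_smul, hyb, hb]
  have hfix : ∀ {z : G}, z ≠ 1 → z * z = 1 → z • b = b →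
      M ⊓ Subgroup.centralizer {z} ≤ stabilizer G b := by
    rintro z hz1 hzz hzb m ⟨-, hm⟩
    exact commute_fix hS hz1 hzz (Subgroup.mem_centralizer_singleton_iff.1 hm).symm hzb
  have hle : M ≤ stabilizer G b :=
    le_of_fixed_le hxx hyy hc hodd (fun m hm => hM.conj_mem m hm x)
      (fun m hm => hM.conj_mem m hm y) (hfix hx1 hxx hb) (hfix hy1 hyy hyb) (hfix hxy1 hxyxy hxyb)
  obtain ⟨g, hg⟩ := exists_map hS b
  intro m hm
  have h1 : (g * m * g⁻¹) • b = b := hle (hM.conj_mem m hm g)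
  rw [← hg, mul_smul, mul_smul, inv_smul_smul] at h1
  exact MulAction.injective g h1

end CfsgLib.RankOne
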