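import Cfsg.Agent.Lib.RankOne.Structure
import Cfsg.Agent.S0033
import Cfsg.Agent.Lib.PSolvable.FrattiniFacts
import Mathlib.GroupTheory.Nilpotent

/-!
The rank-one set-up with 2-rank at least two: `Q` is nilpotent, its involutions are central.
-/

set_option autoImplicit false

namespace CfsgLib.RankOne

open MulAction

variable {G Ω : Type*} [Group G] [MulAction G Ω] {a : Ω} {t : G} {Q : Subgroup G}

theorem inverted_pow {X : Subgroup G} {x : G} (hx : x ∈ Cfsg.invertedBy X t) (n : ℕ) :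
    x ^ n ∈ Cfsg.invertedBy X t :=
  ⟨X.pow_mem hx.1 n, by rw [conj_pow_eq, hx.2, inv_pow]⟩

theorem exists_two_involutions (hS : Cfsg.IsRankOneSetup G Ω a t Q) [Finite G]
    (h2 : ∃ x y : G, x ≠ 1 ∧ y ≠ 1 ∧ x ≠ y ∧ x * x = 1 ∧ y * y = 1 ∧ x * y = y * x) :
    ∃ u ∈ Cfsg.involutionsIn (stabilizer G a : Set G),
      ∃ v ∈ Cfsg.involutionsIn (stabilizer G a : Set G), u ≠ v ∧ u * v = v * u := by
  obtain ⟨x, y, hx1, hy1, hxy, hxx, hyy, hc⟩ := h2
  obtain ⟨b, hb⟩ := exists_fixed_point hS hxx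
  obtain ⟨g, hg⟩ := exists_map hS b
  have hyb := commute_fix hS hx1 hxx hc hb
  have hmem : ∀ {z : G}, z ≠ 1 → z * z = 1 → z • b = b →
      g⁻¹ * z * g ∈ Cfsg.involutionsIn (stabilizer G a : Set G) := by
    intro z hz1 hzz hzb
    refine ⟨?_, fun h => hz1 ?_, ?_⟩
    · show (g⁻¹ * z * g) • a = a
      rw [mul_smul, mul_smul, hg, hzb, inv_smul_eq_iff, hg]
    · calc z = g * (g⁻¹ * z * g) * g⁻¹ := by group
        _ = 1 := by rw [h]; group
    · calc g⁻¹ * z * g * (g⁻¹ * z * g) = g⁻¹ * (z * z) * g := by group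
        _ = 1 := by rw [hzz]; group
  refine ⟨_, hmem hx1 hxx hb, _, hmem hy1 hyy hyb, fun h => hxy ?_, ?_⟩
  · exact mul_left_cancel (mul_right_cancel h)
  · calc g⁻¹ * x * g * (g⁻¹ * y * g) = g⁻¹ * (x * y) * g := by group
      _ = g⁻¹ * (y * x) * g := by rw [hc]
      _ = _ := by group

theorem exists_prime_inverted (hS : Cfsg.IsRankOneSetup G Ω a t Q) [Finite G]
    (h2 : ∃ x y : G, x ≠ 1 ∧ y ≠ 1 ∧ x ≠ y ∧ x * x = 1 ∧ y * y = 1 ∧ x * y = y * x) :
    ∃ x ∈ Cfsg.invertedBy (twoPoint G a t) t, (orderOf x).Prime := by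
  obtain ⟨u, hu, v, hv, huv, -⟩ := exists_two_involutions hS h2
  obtain ⟨k, hk, hk1⟩ : ∃ k ∈ Cfsg.invertedBy (twoPoint G a t) t, k ≠ 1 := by
    by_contra hcon
    push Not at hcon
    obtain ⟨k, hk, hku⟩ := exists_conj_inverted hS hu hv
    apply huv
    rw [← hku, hcon k hk]
    group
  have hne : orderOf k ≠ 1 := fun h => hk1 (orderOf_eq_one_iff.1 h)
  obtain ⟨p, hp, m, hm⟩ := Nat.exists_prime_and_dvd hne
  have hm0 : m ≠ 0 := fun h => by
    rw [h, mul_zero] at hm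
    exact (orderOf_pos k).ne' hm
  refine ⟨k ^ m, inverted_pow hk m, ?_⟩
  rw [orderOf_pow_of_dvd hm0 ⟨p, by rw [hm, mul_comm]⟩, hm,
    Nat.mul_div_cancel _ (Nat.pos_of_ne_zero hm0)]
  exact hp

/-- `Q` is nilpotent, by Thompson's theorem. -/
theorem isNilpotent_Q (hS : Cfsg.IsRankOneSetup G Ω a t Q) [Finite G]
    (h2 : ∃ x y : G, x ≠ 1 ∧ y ≠ 1 ∧ x ≠ y ∧ x * x = 1 ∧ y * y = 1 ∧ x * y = y * x) :
    Group.IsNilpotent Q := by
  obtain ⟨x, hx, hp⟩ := exists_prime_inverted hS h2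
  let φ : Q ≃* Q :=
    { toFun := fun q => ⟨x * q * x⁻¹, conj_mem_Q hS hx.1.1 q.2⟩
      invFun := fun q => ⟨x⁻¹ * q * x, conj_inv_mem_Q hS hx.1.1 q.2⟩
      left_inv := fun q => Subtype.ext (by simp [mul_assoc])
      right_inv := fun q => Subtype.ext (by simp [mul_assoc])
      map_mul' := fun q r => Subtype.ext (by simp [mul_assoc]) }
  have hx1 : x ≠ 1 := fun h => by
    rw [h, orderOf_one] at hp
    exact Nat.not_prime_one hp
  have hfix : ∀ q : Q, φ q = q → q = 1 := fun q hq => Subtype.ext (by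
    have e : x * (q : G) * x⁻¹ = q := congrArg Subtype.val hq
    exact inverted_fpf hS hx hx1 q.2 (mul_inv_eq_iff_eq_mul.1 e).symm)
  have hpow : ∀ (n : ℕ) (q : Q), ((φ ^ n) q : G) = x ^ n * q * (x ^ n)⁻¹ := by
    intro n
    induction n with
    | zero => intro q; simp
    | succ n ih =>
      intro q
      rw [pow_succ', MulAut.mul_apply]
      show x * ((φ ^ n) q : G) * x⁻¹ = _
      rw [ih]
      group
  have := Fact.mk hp
  have hord : orderOf φ = orderOf x := by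
    refine orderOf_eq_prime ?_ ?_
    · ext q
      rw [hpow, pow_orderOf_eq_one]
      simp
    · intro h
      obtain ⟨s, hs, hs1, -⟩ := Q_ne_bot hS
      have e := hfix ⟨s, hs⟩ (by rw [h]; rfl)
      exact hs1 (congrArg Subtype.val e)
  exact Cfsg.Agent.S0033.result φ hfix _ hp hord

theorem involutions_central (hS : Cfsg.IsRankOneSetup G Ω a t Q) [Finite G]
    (h2 : ∃ x y : G, x ≠ 1 ∧ y ≠ 1 ∧ x ≠ y ∧ x * x = 1 ∧ y * y = 1 ∧ x * y = y * x)
    {s : G} (hs : s ∈ Cfsg.involutionsIn (stabilizer G a : Set G)) {x : G} (hx : x ∈ Q) :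
    s * x = x * s := by
  have hnil := isNilpotent_Q hS h2
  obtain ⟨P, hP⟩ : ∃ P : Sylow 2 Q, True := ⟨default, trivial⟩
  have hPn : (P : Subgroup Q).Normal :=
    P.normal_of_normalizerCondition Group.normalizerCondition_of_isNilpotent
  have hP1 : (P : Subgroup Q) ≠ ⊥ := by
    intro h
    have h1 := P.not_dvd_index
    rw [h, Subgroup.index_bot] at h1
    exact h1 (even_iff_two_dvd.1 hS.even_card)
  obtain ⟨z, hzP, hz1, hzZ⟩ : ∃ z ∈ (P : Subgroup Q), z ≠ 1 ∧ z ∈ Subgroup.center Q := by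
    by_contra hcon
    push Not at hcon
    refine CfsgLib.PSolvable.inf_center_ne_bot hP1 ?_
    rw [Subgroup.eq_bot_iff_forall]
    rintro w ⟨hwP, hwZ⟩
    by_contra hw
    exact hcon w hwP hw hwZ
  obtain ⟨k, hk⟩ := P.2 ⟨z, hzP⟩
  have hk' : z ^ 2 ^ k = 1 := congrArg Subtype.val hk
  obtain ⟨j, -, hj⟩ := (Nat.dvd_prime_pow Nat.prime_two).1 (orderOf_dvd_of_pow_eq_one hk')
  have hj0 : j ≠ 0 := fun h => hz1 (orderOf_eq_one_iff.1 (by rw [hj, h, pow_zero]))
  obtain ⟨i, rfl⟩ : ∃ i, j = i + 1 := ⟨j - 1, by omega⟩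
  set w := z ^ 2 ^ i with hw
  have hwZ : w ∈ Subgroup.center Q := Subgroup.pow_mem _ hzZ _
  have hww : (w : G) * w = 1 := by
    have : w * w = 1 := by rw [hw, ← pow_add, ← two_mul, ← pow_succ', ← hj, pow_orderOf_eq_one]
    exact congrArg Subtype.val this
  have hw1 : (w : G) ≠ 1 := fun h => by
    have h' : z ^ 2 ^ i = 1 := Subtype.ext h
    have := Nat.le_of_dvd (by positivity) (orderOf_dvd_of_pow_eq_one h')
    rw [hj, pow_succ] at this
    have : 0 < 2 ^ i := by positivity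
    omega
  have hwI : (w : G) ∈ Cfsg.involutionsIn (stabilizer G a : Set G) := ⟨hS.le w.2, hw1, hww⟩
  obtain ⟨c, hc, rfl⟩ := exists_conj_inverted hS hwI hs
  have hxc : c * x * c⁻¹ ∈ Q := conj_mem_Q hS hc.1.1 hx
  have e : (w : G) * (c * x * c⁻¹) = c * x * c⁻¹ * w :=
    (congrArg Subtype.val (Subgroup.mem_center_iff.1 hwZ ⟨_, hxc⟩)).symm
  calc c⁻¹ * w * c * x = c⁻¹ * (w * (c * x * c⁻¹)) * c := by group
    _ = c⁻¹ * (c * x * c⁻¹ * w) * c := by rw [e]
    _ = x * (c⁻¹ * w * c) := by group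

theorem involutions_mul (hS : Cfsg.IsRankOneSetup G Ω a t Q) [Finite G]
    (h2 : ∃ x y : G, x ≠ 1 ∧ y ≠ 1 ∧ x ≠ y ∧ x * x = 1 ∧ y * y = 1 ∧ x * y = y * x)
    {s s' : G} (hs : s ∈ Cfsg.involutionsIn (stabilizer G a : Set G))
    (hs' : s' ∈ Cfsg.involutionsIn (stabilizer G a : Set G)) (h : s * s' ≠ 1) :
    s * s' ∈ Cfsg.involutionsIn (stabilizer G a : Set G) := by
  have hsQ := involution_mem_Q hS hs.1 hs.2.2
  have hs'Q := involution_mem_Q hS hs'.1 hs'.2.2
  refine ⟨hS.le (Q.mul_mem hsQ hs'Q), h, ?_⟩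
  have e := involutions_central hS h2 hs hs'Q
  calc s * s' * (s * s') = s * (s' * s) * s' := by group
    _ = (s * s) * (s' * s') := by rw [← e]; group
    _ = 1 := by rw [hs.2.2, hs'.2.2, one_mul]

/-- A strongly real element with non-trivial square. -/
theorem strongly_real (hS : Cfsg.IsRankOneSetup G Ω a t Q) [Finite G]
    (h2 : ∃ x y : G, x ≠ 1 ∧ y ≠ 1 ∧ x ≠ y ∧ x * x = 1 ∧ y * y = 1 ∧ x * y = y * x)
    {u v : G} (hu1 : u ≠ 1) (hu2 : u * u = 1) (hv1 : v ≠ 1) (hv2 : v * v = 1)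
    (hx : (u * v) * (u * v) ≠ 1) :
    (∃ g : G, ∃ u' ∈ Cfsg.involutionsIn (stabilizer G a : Set G), g * (u * v) * g⁻¹ = u' * t) ∧
      Odd (Nat.card ↥(Subgroup.centralizer {u * v})) := by
  have conj_inv : ∀ {h w : G}, w ≠ 1 → w * w = 1 →
      h * w * h⁻¹ ≠ 1 ∧ (h * w * h⁻¹) * (h * w * h⁻¹) = 1 := by
    intro h w hw1 hw2
    refine ⟨fun e => hw1 ?_, ?_⟩
    · calc w = h⁻¹ * (h * w * h⁻¹) * h := by group
        _ = 1 := by rw [e]; group
    · calc h * w * h⁻¹ * (h * w * h⁻¹) = h * (w * w) * h⁻¹ := by group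
        _ = 1 := by rw [hw2]; group
  obtain ⟨p, hp⟩ := exists_fixed_point hS hu2
  have hne : v • p ≠ p := by
    intro hvp
    obtain ⟨g, hg⟩ := exists_map hS p
    have hga : g⁻¹ • p = a := by rw [← hg, inv_smul_smul]
    have key : ∀ {w : G}, w ≠ 1 → w * w = 1 → w • p = p →
        g⁻¹ * w * g ∈ Cfsg.involutionsIn (stabilizer G a : Set G) := by
      intro w h1 h2' h3
      refine ⟨?_, ?_, ?_⟩
      · show (g⁻¹ * w * g) • a = a
        rw [mul_smul, mul_smul, hg, h3, hga]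
      · simpa using (conj_inv (h := g⁻¹) h1 h2').1
      · simpa using (conj_inv (h := g⁻¹) h1 h2').2
    have hU := key hu1 hu2 hp
    have hV := key hv1 hv2 hvp
    have e := involutions_central hS h2 hU (involution_mem_Q hS hV.1 hV.2.2)
    have e' : u * v = v * u := by
      calc u * v = g * ((g⁻¹ * u * g) * (g⁻¹ * v * g)) * g⁻¹ := by group
        _ = g * ((g⁻¹ * v * g) * (g⁻¹ * u * g)) * g⁻¹ := by rw [e]
        _ = v * u := by group
    apply hx
    calc u * v * (u * v) = u * v * (v * u) := by rw [← e']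
      _ = u * (v * v) * u := by group
      _ = 1 := by rw [hv2, mul_one, hu2]
  have hvvp : v • v • p = p := by rw [← mul_smul, hv2, one_smul]
  obtain ⟨g, hga, hgt⟩ := exists_map_pair hS hne.symm (ta_ne hS).symm
  have hgia : g⁻¹ • a = p := by rw [← hga, inv_smul_smul]
  have hk : t * (g * v * g⁻¹) ∈ Cfsg.invertedBy (twoPoint G a t) t :=
    t_mul_mem_inverted hS (by rw [mul_smul, mul_smul, hgia, hgt]) (conj_inv hv1 hv2).2
  obtain ⟨c, hc, hcc⟩ : ∃ c ∈ Cfsg.invertedBy (twoPoint G a t) t, c * c = t * (g * v * g⁻¹) :=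
    ⟨_, sqrt_mem_invertedBy hk, sqrt_mul_self hS.odd_card hk.1⟩
  have ev : c * (g * v * g⁻¹) * c⁻¹ = t := by
    have e1 : g * v * g⁻¹ = t * (c * c) := by
      rw [hcc, ← mul_assoc, hS.mul_self, one_mul]
    have e2 : c * t = t * c⁻¹ := by
      have h1 := hc.2
      rw [t_inv hS] at h1
      calc c * t = (t * t) * c * t := by rw [hS.mul_self, one_mul]
        _ = t * (t * c * t) := by group
        _ = t * c⁻¹ := by rw [h1]
    calc c * (g * v * g⁻¹) * c⁻¹ = (c * t) * c := by rw [e1]; group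
      _ = t := by rw [e2, inv_mul_cancel_right]
  set u' := c * (g * u * g⁻¹) * c⁻¹ with hu'
  have hu'I : u' ∈ Cfsg.involutionsIn (stabilizer G a : Set G) := by
    have h1 := conj_inv (h := c) (conj_inv (h := g) hu1 hu2).1 (conj_inv (h := g) hu1 hu2).2
    refine ⟨?_, h1.1, h1.2⟩
    show u' • a = a
    have hca : c⁻¹ • a = a := inv_smul_eq_iff.2 (Eq.symm hc.1.1)
    rw [hu', mul_smul, mul_smul, mul_smul, mul_smul, hca, hgia, hp, hga,
      show c • a = a from hc.1.1]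
  have hconj : (c * g) * (u * v) * (c * g)⁻¹ = u' * t := by
    calc (c * g) * (u * v) * (c * g)⁻¹
        = (c * (g * u * g⁻¹) * c⁻¹) * (c * (g * v * g⁻¹) * c⁻¹) := by group
      _ = u' * t := by rw [← hu', ev]
  refine ⟨⟨c * g, u', hu'I, hconj⟩, ?_⟩
  by_contra hodd
  have hdvd : 2 ∣ Nat.card ↥(Subgroup.centralizer {u * v}) :=
    even_iff_two_dvd.1 (Nat.not_odd_iff_even.1 hodd)
  obtain ⟨z₀, hz₀⟩ := exists_prime_orderOf_dvd_card' 2 hdvd
  have hz01 : (z₀ : G) ≠ 1 := fun h => by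
    have h' : z₀ = 1 := Subtype.ext h
    rw [h', orderOf_one] at hz₀
    omega
  have hz02 : (z₀ : G) * z₀ = 1 := by
    have h := pow_orderOf_eq_one z₀
    rw [hz₀, pow_two] at h
    exact congrArg Subtype.val h
  obtain ⟨z, hz1, hz2, hzx⟩ : ∃ z : G, z ≠ 1 ∧ z * z = 1 ∧ z * (u' * t) = (u' * t) * z := by
    refine ⟨_, (conj_inv (h := c * g) hz01 hz02).1, (conj_inv (h := c * g) hz01 hz02).2, ?_⟩
    have e : (z₀ : G) * (u * v) = u * v * z₀ := Subgroup.mem_centralizer_singleton_iff.1 z₀.2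
    rw [← hconj]
    calc c * g * z₀ * (c * g)⁻¹ * (c * g * (u * v) * (c * g)⁻¹)
        = c * g * (z₀ * (u * v)) * (c * g)⁻¹ := by group
      _ = c * g * (u * v * z₀) * (c * g)⁻¹ := by rw [e]
      _ = _ := by group
  obtain ⟨q, hq⟩ := exists_fixed_point hS hz2
  have hxq : (u' * t) • q = q := commute_fix hS hz1 hz2 hzx hq
  have huu : u' • u' • q = q := by rw [← mul_smul, hu'I.2.2, one_smul]
  have htu : t • q = u' • q := by
    have h1 := hxq
    rw [mul_smul] at h1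
    calc t • q = (u' * u') • t • q := by rw [hu'I.2.2, one_smul]
      _ = u' • u' • t • q := by rw [mul_smul]
      _ = u' • q := by rw [h1]
  have hqq : t • q ≠ q := by
    intro h
    have hqa : q = a :=
      involution_fixed_unique hS hu'I.2.1 hu'I.2.2 (htu.symm.trans h) hu'I.1
    rw [hqa] at h
    exact ta_ne hS h
  set q' := t • q with hq'
  have hxq' : (u' * t) • q' = q' := by rw [mul_smul, hq', tta hS, ← htu]
  have hzq' : z • q' ≠ q' := fun h => hqq (involution_fixed_unique hS hz1 hz2 h hq)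
  have hzne : z • q' ≠ q := by
    intro h
    have h1 := congrArg (z • ·) h
    simp only [← mul_smul, hz2, one_smul] at h1
    exact hqq (h1.trans hq)
  have hxz : (u' * t) • z • q' = z • q' := by rw [← mul_smul, ← hzx, mul_smul, hxq']
  obtain ⟨h, hha, hht⟩ := exists_map_pair hS hqq.symm (ta_ne hS).symm
  have hhia : h⁻¹ • a = q := by rw [← hha, inv_smul_smul]
  have hhit : h⁻¹ • t • a = q' := by rw [← hht, inv_smul_smul]
  set y := h * (u' * t) * h⁻¹ with hy
  have hyD : y ∈ twoPoint G a t := by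
    refine ⟨?_, ?_⟩
    · show y • a = a
      rw [hy, mul_smul, mul_smul, hhia, hxq, hha]
    · show y • t • a = t • a
      rw [hy, mul_smul, mul_smul, hhit, hxq', hht]
  have hk₁ : t * (h * t * h⁻¹) ∈ Cfsg.invertedBy (twoPoint G a t) t :=
    t_mul_mem_inverted hS (by rw [mul_smul, mul_smul, hhia, ← hq', hht])
      (conj_inv hS.ne_one hS.mul_self).2
  obtain ⟨d, hd, hdd⟩ : ∃ d ∈ Cfsg.invertedBy (twoPoint G a t) t, d * d = t * (h * t * h⁻¹) :=
    ⟨_, sqrt_mem_invertedBy hk₁, sqrt_mul_self hS.odd_card hk₁.1⟩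
  have et : d * (h * t * h⁻¹) * d⁻¹ = t := by
    have e1 : h * t * h⁻¹ = t * (d * d) := by rw [hdd, ← mul_assoc, hS.mul_self, one_mul]
    have e2 : d * t = t * d⁻¹ := by
      have h1 := hd.2
      rw [t_inv hS] at h1
      calc d * t = (t * t) * d * t := by rw [hS.mul_self, one_mul]
        _ = t * (t * d * t) := by group
        _ = t * d⁻¹ := by rw [h1]
    calc d * (h * t * h⁻¹) * d⁻¹ = (d * t) * d := by rw [e1]; group
      _ = t := by rw [e2, inv_mul_cancel_right]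
  have hyI : d * y * d⁻¹ ∈ Cfsg.invertedBy (twoPoint G a t) t := by
    refine ⟨Subgroup.mul_mem _ (Subgroup.mul_mem _ hd.1 hyD) (Subgroup.inv_mem _ hd.1), ?_⟩
    have h3 : d * (h * (t * (u' * t) * t⁻¹) * h⁻¹) * d⁻¹ = (d * y * d⁻¹)⁻¹ := by
      have : t * (u' * t) * t⁻¹ = (u' * t)⁻¹ := by
        rw [mul_inv_rev, t_inv hS, inv_eq_of_mul_eq_one_right hu'I.2.2]
        calc t * (u' * t) * t = t * u' * (t * t) := by group
          _ = t * u' := by rw [hS.mul_self, mul_one]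
      rw [this, hy]
      group
    rw [← h3]
    calc t * (d * y * d⁻¹) * t⁻¹
        = (d * (h * t * h⁻¹) * d⁻¹) * (d * y * d⁻¹) * (d * (h * t * h⁻¹) * d⁻¹)⁻¹ := by rw [et]
      _ = d * (h * (t * (u' * t) * t⁻¹) * h⁻¹) * d⁻¹ := by rw [hy]; group
  have hfixy : (d * y * d⁻¹) • d • h • z • q' = d • h • z • q' := by
    rw [← mul_smul, inv_mul_cancel_right, mul_smul, hy, mul_smul, mul_smul, inv_smul_smul, hxz]
  have hy1 := inverted_fix hS hyI (p := d • h • z • q')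
    (fun e => hzne (MulAction.injective h
      ((MulAction.injective d (e.trans (Eq.symm hd.1.1))).trans hha.symm)))
    (fun e => hzq' (MulAction.injective h
      ((MulAction.injective d (e.trans (Eq.symm hd.1.2))).trans hht.symm)))
    hfixy
  have hxone : u' * t = 1 := by
    calc u' * t = (d * h)⁻¹ * (d * y * d⁻¹) * (d * h) := by rw [hy]; group
      _ = 1 := by rw [hy1]; group
  apply hx
  have e : u * v = 1 := by
    calc u * v = (c * g)⁻¹ * (u' * t) * (c * g) := by rw [← hconj]; group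
      _ = 1 := by rw [hxone]; group
  rw [e, one_mul]

end CfsgLib.RankOne
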