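import Cfsg.Agent.Lib.RankOne.Basic

/-!
The set `K` of elements of the two-point stabiliser inverted by `t`, and the structure equation.
-/

set_option autoImplicit false

namespace CfsgLib.RankOne

open MulAction

variable {G Ω : Type*} [Group G] [MulAction G Ω] {a : Ω} {t : G} {Q : Subgroup G}

theorem tk_involution (hS : Cfsg.IsRankOneSetup G Ω a t Q) {k : G}
    (hk : k ∈ Cfsg.invertedBy (twoPoint G a t) t) :
    (t * k) • a = t • a ∧ (t * k) • t • a = a ∧ (t * k) * (t * k) = 1 ∧ t * k ≠ 1 := by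
  have h1 : (t * k) • a = t • a := by rw [mul_smul, show k • a = a from hk.1.1]
  refine ⟨h1, ?_, ?_, ?_⟩
  · rw [mul_smul, show k • t • a = t • a from hk.1.2, tta hS]
  · have := hk.2
    rw [t_inv hS] at this
    calc t * k * (t * k) = (t * k * t) * k := by group
      _ = 1 := by rw [this, inv_mul_cancel]
  · intro h
    rw [h, one_smul] at h1
    exact ta_ne hS h1.symm

theorem t_mul_mem_inverted (hS : Cfsg.IsRankOneSetup G Ω a t Q) {u : G} (hu : u • a = t • a)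
    (hu2 : u * u = 1) : t * u ∈ Cfsg.invertedBy (twoPoint G a t) t := by
  have hu' : u • t • a = a := by rw [← hu, ← mul_smul, hu2, one_smul]
  refine ⟨⟨?_, ?_⟩, ?_⟩
  · show (t * u) • a = a
    rw [mul_smul, hu, tta hS]
  · show (t * u) • t • a = t • a
    rw [mul_smul, hu']
  · rw [t_inv hS, mul_inv_rev, inv_eq_of_mul_eq_one_right hu2, t_inv hS]
    calc t * (t * u) * t = (t * t) * u * t := by group
      _ = u * t := by rw [hS.mul_self, one_mul]

theorem mem_involutionsIn {u : G} :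
    u ∈ Cfsg.involutionsIn (stabilizer G a : Set G) ↔ u • a = a ∧ u ≠ 1 ∧ u * u = 1 := Iff.rfl

theorem card_inverted (hS : Cfsg.IsRankOneSetup G Ω a t Q) [Finite G] :
    Nat.card (Cfsg.invertedBy (twoPoint G a t) t) =
      Nat.card (Cfsg.involutionsIn (stabilizer G a : Set G)) := by
  have := finite_space hS
  choose g hg using exists_map hS
  let Pairs := {p : G × Ω // p.1 ≠ 1 ∧ p.1 * p.1 = 1 ∧ p.1 • p.2 ≠ p.2}
  have hcl : ∀ (h u : G), h * u * h⁻¹ * (h * u * h⁻¹) = h * (u * u) * h⁻¹ := fun h u => by group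
  have hne : ∀ {h u : G}, u ≠ 1 → h * u * h⁻¹ ≠ 1 := by
    intro h u hu he
    apply hu
    calc u = h⁻¹ * (h * u * h⁻¹) * h := by group
      _ = 1 := by rw [he]; group
  let f1 : Ω × Q × ↥(Cfsg.involutionsIn (stabilizer G a : Set G)) → Pairs := fun x =>
    ⟨(g x.1 * (x.2.2 : G) * (g x.1)⁻¹, g x.1 • (x.2.1 : G) • t • a), hne x.2.2.2.2.1,
      by rw [hcl, x.2.2.2.2.2]; group, by
        simp only [mul_smul, inv_smul_smul]
        intro h
        exact smul_ne_a hS x.2.1.2 (ta_ne hS)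
          (involution_fixed_unique hS x.2.2.2.2.1 x.2.2.2.2.2 (MulAction.injective _ h) x.2.2.2.1)⟩
  have hf1 : Function.Bijective f1 := by
    constructor
    · rintro ⟨b, q, s⟩ ⟨b', q', s'⟩ h
      have h1 : g b * (s : G) * (g b)⁻¹ = g b' * (s' : G) * (g b')⁻¹ :=
        congrArg (fun z : Pairs => z.1.1) h
      have h2 : g b • (q : G) • t • a = g b' • (q' : G) • t • a :=
        congrArg (fun z : Pairs => z.1.2) h
      have hb : ∀ (c : Ω) (r : ↥(Cfsg.involutionsIn (stabilizer G a : Set G))),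
          (g c * (r : G) * (g c)⁻¹) • c = c := fun c r => by
        conv_lhs => rw [mul_smul, mul_smul]; arg 2; arg 2; rw [show (g c)⁻¹ • c = a from
          inv_smul_eq_iff.2 (hg c).symm]
        rw [show (r : G) • a = a from r.2.1, hg]
      obtain rfl : b = b' := involution_fixed_unique hS (hne s.2.2.1)
        (by rw [hcl, s.2.2.2]; group) (hb b s) (h1 ▸ hb b' s')
      have e1 : (s : G) = s' := mul_left_cancel (mul_right_cancel h1)
      have e2 : (q : G) = q' := Q_inj hS q.2 q'.2 (ta_ne hS) (MulAction.injective _ h2)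
      rw [Subtype.ext e1, Subtype.ext e2]
    · rintro ⟨⟨u, x⟩, hu1, hu2, hux⟩
      simp only at hu1 hu2 hux
      obtain ⟨b, hb⟩ := exists_fixed_point hS hu2
      have hxb : (g b)⁻¹ • x ≠ a := fun h => hux (by
        have e := congrArg (g b • ·) h
        simp only [smul_inv_smul, hg] at e
        rw [e, hb])
      obtain ⟨q, hq, hqx⟩ := exists_Q_map hS hxb
      have hs : (g b)⁻¹ * u * g b ∈ Cfsg.involutionsIn (stabilizer G a : Set G) := by
        refine ⟨?_, ?_, ?_⟩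
        · show ((g b)⁻¹ * u * g b) • a = a
          rw [mul_smul, mul_smul, hg, hb, inv_smul_eq_iff, hg]
        · simpa using hne (h := (g b)⁻¹) hu1
        · have := hcl (g b)⁻¹ u
          rw [inv_inv] at this
          rw [this, hu2]; group
      refine ⟨(b, ⟨q, hq⟩, ⟨_, hs⟩), Subtype.ext (Prod.ext ?_ ?_)⟩
      · show g b * ((g b)⁻¹ * u * g b) * (g b)⁻¹ = u
        group
      · show g b • q • t • a = x
        rw [hqx, smul_inv_smul]
  let f2 : Ω × Q × ↥(Cfsg.invertedBy (twoPoint G a t) t) → Pairs := fun x =>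
    ⟨(g x.1 * x.2.1 * (t * x.2.2) * (g x.1 * (x.2.1 : G))⁻¹, x.1),
      hne (tk_involution hS x.2.2.2).2.2.2,
      by rw [hcl, (tk_involution hS x.2.2.2).2.2.1]; group, by
        show _ • x.1 ≠ x.1
        intro h
        have e : (g x.1 * (x.2.1 : G))⁻¹ • x.1 = a := by
          rw [inv_smul_eq_iff, mul_smul, Q_fix hS x.2.1.2, hg]
        rw [mul_smul (g x.1 * (x.2.1 : G) * (t * (x.2.2 : G))), e,
          mul_smul (g x.1 * (x.2.1 : G)), (tk_involution hS x.2.2.2).1] at h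
        have h' := h.trans (by rw [mul_smul, Q_fix hS x.2.1.2, hg] :
          x.1 = (g x.1 * (x.2.1 : G)) • a)
        exact ta_ne hS (MulAction.injective _ h')⟩
  have hf2 : Function.Bijective f2 := by
    constructor
    · rintro ⟨b, q, k⟩ ⟨b', q', k'⟩ h
      obtain rfl : b = b' := congrArg (fun z : Pairs => z.1.2) h
      have h1 : g b * q * (t * k) * (g b * (q : G))⁻¹ = g b * q' * (t * k') * (g b * (q' : G))⁻¹ :=
        congrArg (fun z : Pairs => z.1.1) h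
      have e : ∀ (r : Q) (c : ↥(Cfsg.invertedBy (twoPoint G a t) t)),
          (g b * r * (t * c) * (g b * (r : G))⁻¹) • b = g b • (r : G) • t • a := by
        intro r c
        have e1 : (g b * (r : G))⁻¹ • b = a := by
          rw [inv_smul_eq_iff, mul_smul, Q_fix hS r.2, hg]
        rw [mul_smul (g b * (r : G) * (t * (c : G))), e1, mul_smul (g b * (r : G)),
          (tk_involution hS c.2).1, mul_smul]
      have e2 : g b • (q : G) • t • a = g b • (q' : G) • t • a := by rw [← e q k, ← e q' k', h1]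
      obtain rfl : q = q' := Subtype.ext (Q_inj hS q.2 q'.2 (ta_ne hS) (MulAction.injective _ e2))
      have e3 : (k : G) = k' := mul_left_cancel (mul_left_cancel (mul_right_cancel h1))
      rw [Subtype.ext e3]
    · rintro ⟨⟨u, x⟩, hu1, hu2, hux⟩
      simp only at hu1 hu2 hux
      have hxb : (g x)⁻¹ • u • x ≠ a := fun h => hux (by
        have e := congrArg (g x • ·) h
        simpa only [smul_inv_smul, hg] using e)
      obtain ⟨q, hq, hqx⟩ := exists_Q_map hS hxb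
      set w := (g x * q)⁻¹ * u * (g x * q) with hw
      have hw1 : w • a = t • a := by
        rw [hw, mul_smul, mul_smul, mul_smul (g x), Q_fix hS hq, hg, inv_smul_eq_iff, mul_smul, hqx,
          smul_inv_smul]
      have hw2 : w * w = 1 := by
        rw [hw]
        calc (g x * q)⁻¹ * u * (g x * q) * ((g x * q)⁻¹ * u * (g x * q))
            = (g x * q)⁻¹ * (u * u) * (g x * q) := by group
          _ = 1 := by rw [hu2]; group
      refine ⟨(x, ⟨q, hq⟩, ⟨_, t_mul_mem_inverted hS hw1 hw2⟩), Subtype.ext (Prod.ext ?_ rfl)⟩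
      show g x * q * (t * (t * w)) * (g x * q)⁻¹ = u
      rw [← mul_assoc t t, hS.mul_self, one_mul, hw]
      group
  have h1 := Nat.card_eq_of_bijective f1 hf1
  have h2 := Nat.card_eq_of_bijective f2 hf2
  rw [← h2] at h1
  simp only [Nat.card_prod] at h1
  have hne' : Nat.card Ω ≠ 0 := by rw [card_space hS]; omega
  exact (Nat.eq_of_mul_eq_mul_left Nat.card_pos
    (Nat.eq_of_mul_eq_mul_left (Nat.pos_of_ne_zero hne') h1)).symm

/-- The structure equation for an involution `s` of the point stabiliser. -/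
def Struct (a : Ω) (t : G) (Q : Subgroup G) (s r k : G) : Prop :=
  s ∈ Cfsg.involutionsIn (stabilizer G a : Set G) ∧ r ∈ Q ∧
    k ∈ Cfsg.invertedBy (twoPoint G a t) t ∧ t * s * t = r⁻¹ * (t * k) * r

theorem tst_fixed (hS : Cfsg.IsRankOneSetup G Ω a t Q) {s : G}
    (hs : s ∈ Cfsg.involutionsIn (stabilizer G a : Set G)) {b : Ω} :
    (t * s * t) • b = b ↔ b = t • a := by
  constructor
  · intro h
    rw [mul_smul, mul_smul] at h
    have e : s • t • b = t • b := by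
      have := congrArg (t • ·) h
      simpa only [tta hS] using this
    have h2 := involution_fixed_unique hS hs.2.1 hs.2.2 e hs.1
    have := congrArg (t • ·) h2
    simpa only [tta hS] using this
  · rintro rfl
    rw [mul_smul, mul_smul, tta hS, show s • a = a from hs.1]

theorem exists_struct (hS : Cfsg.IsRankOneSetup G Ω a t Q) {s : G}
    (hs : s ∈ Cfsg.involutionsIn (stabilizer G a : Set G)) :
    ∃ r k, Struct a t Q s r k := by
  have hne : (t * s * t) • a ≠ a := fun h => ta_ne hS ((tst_fixed hS hs).1 h).symm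
  obtain ⟨q, hq, hqa⟩ := exists_Q_map hS hne
  set u := q⁻¹ * (t * s * t) * q with hu
  have hu1 : u • a = t • a := by
    rw [hu, mul_smul, mul_smul, Q_fix hS hq, ← hqa, inv_smul_smul]
  have hu2 : u * u = 1 := by
    have e : t * s * t * (t * s * t) = 1 := by
      calc t * s * t * (t * s * t) = t * s * (t * t) * (s * t) := by group
        _ = t * (s * s) * t := by rw [hS.mul_self]; group
        _ = 1 := by rw [hs.2.2, mul_one, hS.mul_self]
    calc u * u = q⁻¹ * (t * s * t * (t * s * t)) * q := by rw [hu]; group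
      _ = 1 := by rw [e]; group
  refine ⟨q⁻¹, t * u, hs, Q.inv_mem hq, t_mul_mem_inverted hS hu1 hu2, ?_⟩
  rw [← mul_assoc t t, hS.mul_self, one_mul, hu]
  group

theorem struct_unique (hS : Cfsg.IsRankOneSetup G Ω a t Q) {s r k r' k' : G}
    (h : Struct a t Q s r k) (h' : Struct a t Q s r' k') : r = r' ∧ k = k' := by
  have e := congrArg (· • a) (h.2.2.2.symm.trans h'.2.2.2)
  simp only [mul_smul, Q_fix hS h.2.1, Q_fix hS h'.2.1, show k • a = a from h.2.2.1.1.1,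
    show k' • a = a from h'.2.2.1.1.1] at e
  obtain rfl : r = r' := inv_injective (Q_inj hS (Q.inv_mem h.2.1) (Q.inv_mem h'.2.1) (ta_ne hS) e)
  exact ⟨rfl, mul_left_cancel (mul_left_cancel
    (mul_right_cancel (h.2.2.2.symm.trans h'.2.2.2)))⟩

theorem struct_inj (hS : Cfsg.IsRankOneSetup G Ω a t Q) {s s' r r' k : G}
    (h : Struct a t Q s r k) (h' : Struct a t Q s' r' k) : s = s' := by
  set q := r'⁻¹ * r with hq
  have hqQ : q ∈ Q := Q.mul_mem (Q.inv_mem h'.2.1) h.2.1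
  have e : t * s' * t = q * (t * s * t) * q⁻¹ := by
    rw [h'.2.2.2, h.2.2.2, hq]; group
  have hfix : (t * s' * t) • q • t • a = q • t • a := by
    rw [e, mul_smul, mul_smul, inv_smul_smul, (tst_fixed hS h.1).2 rfl]
  have hq1 : q = 1 := eq_one_of_fix hS hqQ (ta_ne hS) ((tst_fixed hS h'.1).1 hfix)
  rw [hq1] at e
  simp only [one_mul, inv_one, mul_one] at e
  exact (mul_left_cancel (mul_right_cancel e)).symm

theorem exists_of_inverted (hS : Cfsg.IsRankOneSetup G Ω a t Q) [Finite G] {k : G}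
    (hk : k ∈ Cfsg.invertedBy (twoPoint G a t) t) : ∃ s r, Struct a t Q s r k := by
  choose r c hc using fun s : ↥(Cfsg.involutionsIn (stabilizer G a : Set G)) =>
    exists_struct hS s.2
  let φ : ↥(Cfsg.involutionsIn (stabilizer G a : Set G)) →
      ↥(Cfsg.invertedBy (twoPoint G a t) t) := fun s => ⟨c s, (hc s).2.2.1⟩
  have hφ : Function.Bijective φ := by
    refine (Nat.bijective_iff_injective_and_card φ).2 ⟨fun s s' h => ?_, (card_inverted hS).symm⟩
    have h' : c s = c s' := congrArg Subtype.val h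
    have hs' := hc s'
    rw [← h'] at hs'
    exact Subtype.ext (struct_inj hS (hc s) hs')
  obtain ⟨s, hs⟩ := hφ.2 ⟨k, hk⟩
  have e : c s = k := congrArg Subtype.val hs
  have hs' := hc s
  rw [e] at hs'
  exact ⟨s, r s, hs'⟩

theorem one_mem_inverted : (1 : G) ∈ Cfsg.invertedBy (twoPoint G a t) t :=
  ⟨(twoPoint G a t).one_mem, by group⟩

theorem conj_involutionsIn {s d : G} (hs : s ∈ Cfsg.involutionsIn (stabilizer G a : Set G))
    (hd : d • a = a) : d⁻¹ * s * d ∈ Cfsg.involutionsIn (stabilizer G a : Set G) := by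
  refine ⟨?_, fun h => hs.2.1 ?_, ?_⟩
  · show (d⁻¹ * s * d) • a = a
    rw [mul_smul, mul_smul, hd, show s • a = a from hs.1, inv_smul_eq_iff, hd]
  · calc s = d * (d⁻¹ * s * d) * d⁻¹ := by group
      _ = 1 := by rw [h]; group
  · calc d⁻¹ * s * d * (d⁻¹ * s * d) = d⁻¹ * (s * s) * d := by group
      _ = 1 := by rw [hs.2.2]; group

theorem inverted_conj {k c : G} (hk : k ∈ Cfsg.invertedBy (twoPoint G a t) t)
    (hc : c ∈ Cfsg.invertedBy (twoPoint G a t) t) :
    c * k * c ∈ Cfsg.invertedBy (twoPoint G a t) t := by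
  refine ⟨(twoPoint G a t).mul_mem ((twoPoint G a t).mul_mem hc.1 hk.1) hc.1, ?_⟩
  calc t * (c * k * c) * t⁻¹ = (t * c * t⁻¹) * (t * k * t⁻¹) * (t * c * t⁻¹) := by group
    _ = (c * k * c)⁻¹ := by rw [hc.2, hk.2]; group

theorem inverted_inv {k : G} (hk : k ∈ Cfsg.invertedBy (twoPoint G a t) t) :
    k⁻¹ ∈ Cfsg.invertedBy (twoPoint G a t) t :=
  ⟨(twoPoint G a t).inv_mem hk.1, by
    calc t * k⁻¹ * t⁻¹ = (t * k * t⁻¹)⁻¹ := by group
      _ = k⁻¹⁻¹ := by rw [hk.2]⟩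

theorem struct_conj_K (hS : Cfsg.IsRankOneSetup G Ω a t Q) {s r k c : G}
    (h : Struct a t Q s r k) (hc : c ∈ Cfsg.invertedBy (twoPoint G a t) t) :
    Struct a t Q (c⁻¹ * s * c) (c * r * c⁻¹) (c⁻¹ * k * c⁻¹) := by
  refine ⟨conj_involutionsIn h.1 hc.1.1, conj_mem_Q hS hc.1.1 h.2.1,
    inverted_conj h.2.2.1 (inverted_inv hc), ?_⟩
  have e : t * c⁻¹ = c * t := by
    have := hc.2
    rw [t_inv hS] at this
    rw [← this]
    calc t * (t * c * t) = (t * t) * c * t := by group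
      _ = c * t := by rw [hS.mul_self, one_mul]
  have e' : c * t = t * c⁻¹ := e.symm
  have e2 : c * t * c⁻¹ = t * c⁻¹ * c⁻¹ := by rw [e']
  have e3 : c * t * c⁻¹ * (c * t) = c * (t * t) := by group
  calc t * (c⁻¹ * s * c) * t = (t * c⁻¹) * s * (t * c⁻¹)⁻¹ * (t * t) := by
        group
    _ = c * (t * s * t) * c⁻¹ := by
        rw [e, hS.mul_self, mul_one]; simp only [mul_inv_rev, t_inv hS]; group
    _ = (c * r * c⁻¹)⁻¹ * ((c * t) * k * c⁻¹) * (c * r * c⁻¹) := by rw [h.2.2.2]; group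
    _ = _ := by rw [e']; group

theorem struct_conj_centralizer (hS : Cfsg.IsRankOneSetup G Ω a t Q) {s r k d : G}
    (h : Struct a t Q s r k) (hd : d ∈ twoPoint G a t) (hdt : d * t = t * d) :
    Struct a t Q (d * s * d⁻¹) (d * r * d⁻¹) (d * k * d⁻¹) := by
  refine ⟨?_, conj_mem_Q hS hd.1 h.2.1, ⟨(twoPoint G a t).mul_mem
    ((twoPoint G a t).mul_mem hd h.2.2.1.1) ((twoPoint G a t).inv_mem hd), ?_⟩, ?_⟩
  · simpa using conj_involutionsIn h.1 (d := d⁻¹) (inv_smul_eq_iff.2 (Eq.symm hd.1))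
  · calc t * (d * k * d⁻¹) * t⁻¹ = (t * d) * k * (t * d)⁻¹ := by group
      _ = d * (t * k * t⁻¹) * d⁻¹ := by rw [← hdt]; group
      _ = (d * k * d⁻¹)⁻¹ := by rw [h.2.2.1.2]; group
  · calc t * (d * s * d⁻¹) * t = (t * d) * s * (t * d)⁻¹ * (t * t) := by group
      _ = d * (t * s * t) * d⁻¹ := by
          rw [← hdt, hS.mul_self, mul_one]; simp only [mul_inv_rev, t_inv hS]; group
      _ = (d * r * d⁻¹)⁻¹ * ((d * t) * k * d⁻¹) * (d * r * d⁻¹) := by rw [h.2.2.2]; group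
      _ = _ := by rw [hdt]; group

theorem exists_base (hS : Cfsg.IsRankOneSetup G Ω a t Q) [Finite G] :
    ∃ s r, Struct a t Q s r 1 := exists_of_inverted hS one_mem_inverted

theorem exists_conj_base (hS : Cfsg.IsRankOneSetup G Ω a t Q) [Finite G] {s₀ r₀ s : G}
    (h₀ : Struct a t Q s₀ r₀ 1) (hs : s ∈ Cfsg.involutionsIn (stabilizer G a : Set G)) :
    ∃ c ∈ Cfsg.invertedBy (twoPoint G a t) t, c⁻¹ * s₀ * c = s := by
  obtain ⟨r, k, h⟩ := exists_struct hS hs
  have hc := sqrt_mem_invertedBy (inverted_inv h.2.2.1)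
  refine ⟨_, hc, struct_inj hS (struct_conj_K hS h₀ hc) ?_ (r' := r)⟩
  convert h using 1
  have := sqrt_mul_self hS.odd_card (inverted_inv h.2.2.1).1
  rw [mul_one, ← mul_inv_rev, this, inv_inv]

theorem exists_conj_inverted (hS : Cfsg.IsRankOneSetup G Ω a t Q) [Finite G] {s s' : G}
    (hs : s ∈ Cfsg.involutionsIn (stabilizer G a : Set G))
    (hs' : s' ∈ Cfsg.involutionsIn (stabilizer G a : Set G)) :
    ∃ k ∈ Cfsg.invertedBy (twoPoint G a t) t, k⁻¹ * s * k = s' := by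
  obtain ⟨r, A, hA⟩ := exists_struct hS hs
  obtain ⟨r', B, hB⟩ := exists_struct hS hs'
  obtain ⟨c, hc, hcc⟩ : ∃ c ∈ Cfsg.invertedBy (twoPoint G a t) t, c * c = A :=
    ⟨_, sqrt_mem_invertedBy hA.2.2.1, sqrt_mul_self hS.odd_card hA.2.2.1.1⟩
  obtain ⟨y, hy, hyy⟩ : ∃ y ∈ Cfsg.invertedBy (twoPoint G a t) t, y * y = c * B * c :=
    ⟨_, sqrt_mem_invertedBy (inverted_conj hB.2.2.1 hc),
      sqrt_mul_self hS.odd_card (inverted_conj hB.2.2.1 hc).1⟩
  have hx := inverted_conj hy (inverted_inv hc)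
  refine ⟨_, inverted_inv hx, struct_inj hS (struct_conj_K hS hA (inverted_inv hx)) ?_ (r' := r')⟩
  convert hB using 1
  rw [inv_inv, ← hcc]
  calc c⁻¹ * y * c⁻¹ * (c * c) * (c⁻¹ * y * c⁻¹) = c⁻¹ * (y * y) * c⁻¹ := by group
    _ = B := by rw [hyy]; group

theorem exists_centralizer_fix (hS : Cfsg.IsRankOneSetup G Ω a t Q) {X : Set G} {p q q' : Ω}
    (hX : ∀ x ∈ X, x • p = p ∧ x • q = q ∧ x • q' = q') (hq : q ≠ p) (hq' : q' ≠ p) :
    ∃ g ∈ Subgroup.centralizer X, g • p = p ∧ g • q = q' := by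
  obtain ⟨h, hh⟩ := exists_map hS p
  have hqa : h⁻¹ • q ≠ a := fun e => hq (by rw [← hh, ← e, smul_inv_smul])
  have hqa' : h⁻¹ • q' ≠ a := fun e => hq' (by rw [← hh, ← e, smul_inv_smul])
  obtain ⟨⟨z, hz⟩, hzq, -⟩ := existsUnique_Q_map hS hqa hqa'
  refine ⟨h * z * h⁻¹, ?_, ?_, ?_⟩
  · rw [Subgroup.mem_centralizer_iff]
    intro x hx
    obtain ⟨hxp, hxq, hxq'⟩ := hX x hx
    have hxa : (h⁻¹ * x * h) • a = a := by
      rw [mul_smul, mul_smul, hh, hxp, inv_smul_eq_iff, hh]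
    have hxq1 : (h⁻¹ * x * h) • h⁻¹ • q = h⁻¹ • q := by
      rw [mul_smul, mul_smul, smul_inv_smul, hxq]
    have hxq2 : (h⁻¹ * x * h) • h⁻¹ • q' = h⁻¹ • q' := by
      rw [mul_smul, mul_smul, smul_inv_smul, hxq']
    have hzx := conj_mem_Q hS hxa hz
    have e : (h⁻¹ * x * h) * z * (h⁻¹ * x * h)⁻¹ = z := by
      refine Q_inj hS hzx hz hqa ?_
      rw [hzq, mul_smul, mul_smul, inv_smul_eq_iff.2 hxq1.symm, hzq, hxq2]
    calc x * (h * z * h⁻¹) = h * ((h⁻¹ * x * h) * z * (h⁻¹ * x * h)⁻¹) * h⁻¹ * x := by group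
      _ = h * z * h⁻¹ * x := by rw [e]
  · rw [mul_smul, mul_smul, inv_smul_eq_iff.2 hh.symm, Q_fix hS hz, hh]
  · rw [mul_smul, mul_smul]
    simp only at hzq
    rw [hzq, smul_inv_smul]

theorem centralizer_two_transitive (hS : Cfsg.IsRankOneSetup G Ω a t Q) {X : Set G}
    {b c d : Ω} (hbc : b ≠ c) (hbd : b ≠ d) (hcd : c ≠ d)
    (h3 : ∀ x ∈ X, x • b = b ∧ x • c = c ∧ x • d = d) (b₁ b₂ c₁ c₂ : Ω)
    (hfix : ∀ x ∈ X, x • b₁ = b₁ ∧ x • b₂ = b₂ ∧ x • c₁ = c₁ ∧ x • c₂ = c₂)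
    (hb : b₁ ≠ b₂) (hc : c₁ ≠ c₂) :
    ∃ g ∈ Subgroup.centralizer X, g • b₁ = c₁ ∧ g • b₂ = c₂ := by
  have step1 : ∃ g ∈ Subgroup.centralizer X, g • b₁ = c₁ := by
    by_cases he : b₁ = c₁
    · exact ⟨1, Subgroup.one_mem _, by rw [one_smul, he]⟩
    · obtain ⟨p, hp1, hp2, hp⟩ : ∃ p, p ≠ b₁ ∧ p ≠ c₁ ∧ ∀ x ∈ X, x • p = p := by
        by_cases h1 : b ≠ b₁ ∧ b ≠ c₁
        · exact ⟨b, h1.1, h1.2, fun x hx => (h3 x hx).1⟩
        by_cases h2 : c ≠ b₁ ∧ c ≠ c₁
        · exact ⟨c, h2.1, h2.2, fun x hx => (h3 x hx).2.1⟩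
        refine ⟨d, ?_, ?_, fun x hx => (h3 x hx).2.2⟩
        · grind
        · grind
      obtain ⟨g, hg, -, hg2⟩ := exists_centralizer_fix hS (X := X) (p := p) (q := b₁) (q' := c₁)
        (fun x hx => ⟨hp x hx, (hfix x hx).1, (hfix x hx).2.2.1⟩) hp1.symm hp2.symm
      exact ⟨g, hg, hg2⟩
  obtain ⟨g, hg, hgb⟩ := step1
  have hgx : ∀ x ∈ X, x • g • b₂ = g • b₂ := by
    intro x hx
    rw [← mul_smul, Subgroup.mem_centralizer_iff.1 hg x hx, mul_smul, (hfix x hx).2.1]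
  obtain ⟨k, hk, hk1, hk2⟩ := exists_centralizer_fix hS (X := X) (p := c₁) (q := g • b₂) (q' := c₂)
    (fun x hx => ⟨(hfix x hx).2.2.1, hgx x hx, (hfix x hx).2.2.2⟩)
    (fun e => hb (MulAction.injective g (hgb.trans e.symm))) hc.symm
  exact ⟨k * g, Subgroup.mul_mem _ hk hg, by rw [mul_smul, hgb, hk1], by rw [mul_smul, hk2]⟩

theorem exists_involution_centralizing (hS : Cfsg.IsRankOneSetup G Ω a t Q) [Finite G] {X : Set G}
    (hX : X ⊆ (twoPoint G a t : Set G))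
    (h3 : ∃ b c d : Ω, b ≠ c ∧ b ≠ d ∧ c ≠ d ∧ ∀ x ∈ X, x • b = b ∧ x • c = c ∧ x • d = d) :
    ∃ s ∈ Cfsg.involutionsIn (stabilizer G a : Set G), s ∈ Q ∧ s ∈ Subgroup.centralizer X := by
  obtain ⟨b, c, d, hbc, hbd, hcd, hfix⟩ := h3
  have hxa : ∀ x ∈ X, x • a = a ∧ x • t • a = t • a := fun x hx => ⟨(hX hx).1, (hX hx).2⟩
  obtain ⟨g, hg, hg1, hg2⟩ := centralizer_two_transitive hS hbc hbd hcd hfix a (t • a) (t • a) a
    (fun x hx => ⟨(hxa x hx).1, (hxa x hx).2, (hxa x hx).2, (hxa x hx).1⟩) (ta_ne hS).symm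
    (ta_ne hS)
  have heven : Even (orderOf g) := by
    by_contra ho
    obtain ⟨m, hm⟩ := Nat.not_even_iff_odd.1 ho
    have h2 : ∀ n : ℕ, (g ^ (2 * n)) • a = a := by
      intro n
      induction n with
      | zero => simp
      | succ n ih => rw [mul_add, pow_add, mul_smul, pow_two, mul_smul, hg1, hg2, ih]
    have e : (g ^ (2 * m + 1)) • a = a := by rw [← hm, pow_orderOf_eq_one, one_smul]
    rw [pow_succ', mul_smul, h2, hg1] at e
    exact ta_ne hS e
  obtain ⟨m, hm⟩ := heven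
  have hpos := orderOf_pos g
  set z := g ^ m with hz
  have hzz : z * z = 1 := by rw [hz, ← pow_add, ← hm, pow_orderOf_eq_one]
  have hz1 : z ≠ 1 := fun h => by
    have := Nat.le_of_dvd (by omega) (orderOf_dvd_of_pow_eq_one (hz ▸ h))
    omega
  have hzC : z ∈ Subgroup.centralizer X := Subgroup.pow_mem _ hg m
  obtain ⟨p, hp⟩ := exists_fixed_point hS hzz
  have hpx : ∀ x ∈ X, x • p = p := fun x hx =>
    commute_fix hS hz1 hzz (Subgroup.mem_centralizer_iff.1 hzC x hx).symm hp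
  obtain ⟨p', hp', hpp'⟩ : ∃ p', (∀ x ∈ X, x • p' = p') ∧ p ≠ p' := by
    by_cases h : p = a
    · exact ⟨t • a, fun x hx => (hxa x hx).2, h ▸ (ta_ne hS).symm⟩
    · exact ⟨a, fun x hx => (hxa x hx).1, h⟩
  obtain ⟨h, hh, hh1, -⟩ := centralizer_two_transitive hS hbc hbd hcd hfix p p' a (t • a)
    (fun x hx => ⟨hpx x hx, hp' x hx, (hxa x hx).1, (hxa x hx).2⟩) hpp' (ta_ne hS).symm
  have hfa : (h * z * h⁻¹) • a = a := by
    rw [mul_smul, mul_smul, inv_smul_eq_iff.2 hh1.symm, hp, hh1]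
  have hsq : h * z * h⁻¹ * (h * z * h⁻¹) = 1 := by
    calc h * z * h⁻¹ * (h * z * h⁻¹) = h * (z * z) * h⁻¹ := by group
      _ = 1 := by rw [hzz]; group
  refine ⟨h * z * h⁻¹, ⟨hfa, fun e => hz1 ?_, hsq⟩, involution_mem_Q hS hfa hsq,
    Subgroup.mul_mem _ (Subgroup.mul_mem _ hh hzC) (Subgroup.inv_mem _ hh)⟩
  calc z = h⁻¹ * (h * z * h⁻¹) * h := by group
    _ = 1 := by rw [e]; group

theorem commute_t_of_commute_base (hS : Cfsg.IsRankOneSetup G Ω a t Q) {s₀ r₀ d : G}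
    (h₀ : Struct a t Q s₀ r₀ 1) (hd : d ∈ twoPoint G a t) (hds : d * s₀ = s₀ * d) :
    d * t = t * d := by
  set d' := t * d * t⁻¹ with hd'
  have hd'D : d' ∈ twoPoint G a t := twoPoint_conj hS hd
  have hu2 : d' * t * d'⁻¹ * (d' * t * d'⁻¹) = 1 := by
    calc d' * t * d'⁻¹ * (d' * t * d'⁻¹) = d' * (t * t) * d'⁻¹ := by group
      _ = 1 := by rw [hS.mul_self]; group
  have hua : (d' * t * d'⁻¹) • a = t • a := by
    rw [mul_smul, mul_smul, inv_smul_eq_iff.2 (Eq.symm hd'D.1), show d' • t • a = t • a from hd'D.2]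
  have hst : Struct a t Q s₀ (d' * r₀ * d'⁻¹) (t * (d' * t * d'⁻¹)) := by
    refine ⟨h₀.1, conj_mem_Q hS hd'D.1 h₀.2.1, t_mul_mem_inverted hS hua hu2, ?_⟩
    have e1 : d' * (t * s₀ * t⁻¹) * d'⁻¹ = t * s₀ * t⁻¹ := by
      calc d' * (t * s₀ * t⁻¹) * d'⁻¹ = t * (d * s₀ * d⁻¹) * t⁻¹ := by rw [hd']; group
        _ = t * s₀ * t⁻¹ := by rw [hds, mul_inv_cancel_right]
    rw [t_inv hS, h₀.2.2.2, mul_one] at e1
    rw [h₀.2.2.2, mul_one, ← mul_assoc t t, hS.mul_self, one_mul]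
    nth_rewrite 1 [← e1]
    group
  have h2 := (struct_unique hS h₀ hst).2
  have h3 : d' * t * d'⁻¹ = t := by
    have := congrArg (t * ·) h2
    simp only [mul_one, ← mul_assoc, hS.mul_self, one_mul] at this
    exact this.symm
  have h4 : d' * t = t * d' := by rw [mul_inv_eq_iff_eq_mul] at h3; exact h3
  rw [hd', t_inv hS] at h4
  calc d * t = (t * t) * (d * t) := by rw [hS.mul_self, one_mul]
    _ = t * (t * d * t) := by group
    _ = t * d * t * t := h4.symm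
    _ = t * d := by rw [mul_assoc, hS.mul_self, mul_one]

theorem commute_base_of_commute_t (hS : Cfsg.IsRankOneSetup G Ω a t Q) {s₀ r₀ d : G}
    (h₀ : Struct a t Q s₀ r₀ 1) (hd : d ∈ twoPoint G a t) (hdt : d * t = t * d) :
    d * s₀ = s₀ * d := by
  have h1 := struct_conj_centralizer hS h₀ hd hdt
  rw [mul_one, mul_inv_cancel] at h1
  have h2 := struct_inj hS h1 h₀
  rwa [mul_inv_eq_iff_eq_mul] at h2

theorem conj_base_injective (hS : Cfsg.IsRankOneSetup G Ω a t Q) {s₀ r₀ c c' : G}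
    (h₀ : Struct a t Q s₀ r₀ 1) (hc : c ∈ Cfsg.invertedBy (twoPoint G a t) t)
    (hc' : c' ∈ Cfsg.invertedBy (twoPoint G a t) t) (h : c⁻¹ * s₀ * c = c'⁻¹ * s₀ * c') :
    c = c' := by
  have h1 := struct_conj_K hS h₀ hc
  have h2 := struct_conj_K hS h₀ hc'
  rw [h] at h1
  have h3 := (struct_unique hS h1 h2).2
  rw [mul_one, mul_one] at h3
  exact inv_injective (eq_of_mul_self_eq hS.odd_card ((twoPoint G a t).inv_mem hc.1)
    ((twoPoint G a t).inv_mem hc'.1) h3)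

theorem centralizer_t_inf_K (hS : Cfsg.IsRankOneSetup G Ω a t Q) [Finite G] :
    twoPoint G a t ⊓ Subgroup.centralizer {t} ⊓
        Subgroup.centralizer (Cfsg.invertedBy (twoPoint G a t) t) =
      twoPoint G a t ⊓ Subgroup.centralizer (Cfsg.involutionsIn (stabilizer G a : Set G)) := by
  obtain ⟨s₀, r₀, h₀⟩ := exists_base hS
  ext d
  constructor
  · rintro ⟨⟨hd, hdt⟩, hdK⟩
    refine ⟨hd, Subgroup.mem_centralizer_iff.2 fun s hs => ?_⟩
    obtain ⟨c, hc, rfl⟩ := exists_conj_base hS h₀ hs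
    have e1 : d * s₀ = s₀ * d :=
      commute_base_of_commute_t hS h₀ hd (Subgroup.mem_centralizer_singleton_iff.1 hdt)
    have e2 : Commute d c := (Subgroup.mem_centralizer_iff.1 hdK c hc).symm
    exact (((e2.inv_right).mul_right (e1 : Commute d s₀)).mul_right e2).eq.symm
  · rintro ⟨hd, hdI⟩
    have hI := fun s hs => (Subgroup.mem_centralizer_iff.1 hdI s hs).symm
    have hdt := commute_t_of_commute_base hS h₀ hd (hI s₀ h₀.1)
    refine ⟨⟨hd, Subgroup.mem_centralizer_singleton_iff.2 hdt⟩,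
      Subgroup.mem_centralizer_iff.2 fun c hc => ?_⟩
    have hdc : d * c * d⁻¹ ∈ Cfsg.invertedBy (twoPoint G a t) t := by
      refine ⟨(twoPoint G a t).mul_mem ((twoPoint G a t).mul_mem hd hc.1)
        ((twoPoint G a t).inv_mem hd), ?_⟩
      calc t * (d * c * d⁻¹) * t⁻¹ = (t * d) * c * (t * d)⁻¹ := by group
        _ = d * (t * c * t⁻¹) * d⁻¹ := by rw [← hdt]; group
        _ = _ := by rw [hc.2]; group
    have e := conj_base_injective hS h₀ hdc hc (by
      calc (d * c * d⁻¹)⁻¹ * s₀ * (d * c * d⁻¹) = d * (c⁻¹ * (d⁻¹ * (s₀ * d)) * c) * d⁻¹ := by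
            group
        _ = d * (c⁻¹ * s₀ * c) * d⁻¹ := by rw [← hI s₀ h₀.1]; group
        _ = c⁻¹ * s₀ * c := by
            rw [hI _ (conj_involutionsIn h₀.1 hc.1.1), mul_inv_cancel_right])
    rw [mul_inv_eq_iff_eq_mul] at e
    exact e.symm

theorem exists_conj_into_centralizer (hS : Cfsg.IsRankOneSetup G Ω a t Q) [Finite G] {X : Set G}
    (hX : X ⊆ (twoPoint G a t : Set G))
    (h3 : ∃ b c d : Ω, b ≠ c ∧ b ≠ d ∧ c ≠ d ∧ ∀ x ∈ X, x • b = b ∧ x • c = c ∧ x • d = d) :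
    ∃ k ∈ Cfsg.invertedBy (twoPoint G a t) t, ∀ x ∈ X, (k * x * k⁻¹) * t = t * (k * x * k⁻¹) := by
  obtain ⟨s₀, r₀, h₀⟩ := exists_base hS
  obtain ⟨s, hs, -, hsC⟩ := exists_involution_centralizing hS hX h3
  obtain ⟨c, hc, rfl⟩ := exists_conj_base hS h₀ hs
  refine ⟨c, hc, fun x hx => commute_t_of_commute_base hS h₀ ((twoPoint G a t).mul_mem
    ((twoPoint G a t).mul_mem hc.1 (hX hx)) ((twoPoint G a t).inv_mem hc.1)) ?_⟩
  have e := Subgroup.mem_centralizer_iff.1 hsC x hx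
  calc c * x * c⁻¹ * s₀ = c * (x * (c⁻¹ * s₀ * c)) * c⁻¹ := by group
    _ = s₀ * (c * x * c⁻¹) := by rw [e]; group

/-- A nontrivial element inverted by `t` fixes only two points. -/
theorem inverted_fix (hS : Cfsg.IsRankOneSetup G Ω a t Q) [Finite G] {x : G}
    (hx : x ∈ Cfsg.invertedBy (twoPoint G a t) t) {p : Ω} (hpa : p ≠ a) (hpt : p ≠ t • a)
    (hxp : x • p = p) : x = 1 := by
  obtain ⟨k, hk, hkx⟩ := exists_conj_into_centralizer hS (X := {x}) (by simpa using hx.1)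
    ⟨a, t • a, p, (ta_ne hS).symm, hpa.symm, hpt.symm, fun y hy => by
      rw [Set.mem_singleton_iff] at hy
      subst hy
      exact ⟨hx.1.1, hx.1.2, hxp⟩⟩
  have e := hkx x rfl
  have e1 : t * (k * x * k⁻¹) * t⁻¹ = k * x * k⁻¹ := by rw [← e, mul_inv_cancel_right]
  have e2 : t * (k * x * k⁻¹) * t⁻¹ = k⁻¹ * x⁻¹ * k := by
    calc t * (k * x * k⁻¹) * t⁻¹ = (t * k * t⁻¹) * (t * x * t⁻¹) * (t * k * t⁻¹)⁻¹ := by group
      _ = k⁻¹ * x⁻¹ * k := by rw [hk.2, hx.2]; group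
  have e3 : (k * k) * x * (k * k)⁻¹ = x⁻¹ := by
    calc (k * k) * x * (k * k)⁻¹ = k * (k * x * k⁻¹) * k⁻¹ := by group
      _ = k * (k⁻¹ * x⁻¹ * k) * k⁻¹ := by rw [← e1, e2]
      _ = x⁻¹ := by group
  exact eq_one_of_conj_eq_inv hS.odd_card hx.1 ((twoPoint G a t).mul_mem hk.1 hk.1) e3

theorem inverted_fpf (hS : Cfsg.IsRankOneSetup G Ω a t Q) [Finite G] {x q : G}
    (hx : x ∈ Cfsg.invertedBy (twoPoint G a t) t) (hx1 : x ≠ 1) (hq : q ∈ Q)
    (hqx : q * x = x * q) : q = 1 := by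
  by_contra hq1
  refine hx1 (inverted_fix hS hx (p := q • t • a) (smul_ne_a hS hq (ta_ne hS))
    (fun h => hq1 (eq_one_of_fix hS hq (ta_ne hS) h)) ?_)
  rw [← mul_smul, ← hqx, mul_smul, show x • t • a = t • a from hx.1.2]

/-- Fusion in `C_D(t)`. -/
theorem fusion_centralizer (hS : Cfsg.IsRankOneSetup G Ω a t Q) [Finite G] {X : Set G}
    (hX : X ⊆ ((twoPoint G a t ⊓ Subgroup.centralizer {t} : Subgroup G) : Set G)) (g : G)
    (hY : ∀ x ∈ X, g * x * g⁻¹ ∈ twoPoint G a t ⊓ Subgroup.centralizer {t}) :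
    ∃ v ∈ twoPoint G a t ⊓ Subgroup.centralizer {t}, ∀ x ∈ X, v * x * v⁻¹ = g * x * g⁻¹ := by
  obtain ⟨c, hc⟩ := exists_fixed_point hS hS.mul_self
  have hca : c ≠ a := fun h => ta_ne hS (h ▸ hc)
  have hct : c ≠ t • a := fun h => by
    rw [h, tta hS] at hc
    exact ta_ne hS hc.symm
  have hfixV : ∀ y ∈ twoPoint G a t ⊓ Subgroup.centralizer {t},
      y • a = a ∧ y • t • a = t • a ∧ y • c = c := fun y hy => ⟨hy.1.1, hy.1.2,
    commute_fix hS hS.ne_one hS.mul_self (Subgroup.mem_centralizer_singleton_iff.1 hy.2).symm hc⟩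
  set Y : Set G := (fun x => g * x * g⁻¹) '' X with hYdef
  have hYfix : ∀ y ∈ Y, y • a = a ∧ y • t • a = t • a ∧ y • c = c := by
    rintro _ ⟨x, hx, rfl⟩
    exact hfixV _ (hY x hx)
  obtain ⟨h, hh, hha, hht⟩ := centralizer_two_transitive hS (X := Y) (ta_ne hS).symm hca.symm
    hct.symm hYfix (g • a) (g • t • a) a (t • a)
    (by
      rintro _ ⟨x, hx, rfl⟩
      refine ⟨?_, ?_, (hfixV _ (hY x hx)).1, (hfixV _ (hY x hx)).2.1⟩
      · rw [mul_smul, mul_smul, inv_smul_smul, (hfixV x (hX hx)).1]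
      · rw [mul_smul, mul_smul, inv_smul_smul, (hfixV x (hX hx)).2.1])
    (fun e => ta_ne hS (MulAction.injective g e).symm) (ta_ne hS).symm
  have hdD : h * g ∈ twoPoint G a t :=
    ⟨(mul_smul h g a).trans hha, (mul_smul h g (t • a)).trans hht⟩
  obtain ⟨⟨v, k⟩, ⟨hv, hk, hvk⟩, -⟩ := existsUnique_factor hS.mul_self hS.odd_card
    (fun _ h => twoPoint_conj hS h) hdD
  refine ⟨v, hv, fun x hx => ?_⟩
  have hcomm : h * (g * x * g⁻¹) * h⁻¹ = g * x * g⁻¹ := by
    rw [← Subgroup.mem_centralizer_iff.1 hh _ ⟨x, hx, rfl⟩, mul_inv_cancel_right]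
  have hvk' : h * g = v * k := hvk
  have e : v * (k * x * k⁻¹) * v⁻¹ = g * x * g⁻¹ := by
    calc v * (k * x * k⁻¹) * v⁻¹ = (v * k) * x * (v * k)⁻¹ := by group
      _ = (h * g) * x * (h * g)⁻¹ := by rw [hvk']
      _ = h * (g * x * g⁻¹) * h⁻¹ := by group
      _ = _ := hcomm
  have hvt : t * v * t⁻¹ = v := by
    rw [← Subgroup.mem_centralizer_singleton_iff.1 hv.2, mul_inv_cancel_right]
  have hxt : t * x * t⁻¹ = x := by
    rw [← Subgroup.mem_centralizer_singleton_iff.1 (hX hx).2, mul_inv_cancel_right]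
  have hyt : t * (g * x * g⁻¹) * t⁻¹ = g * x * g⁻¹ := by
    rw [← Subgroup.mem_centralizer_singleton_iff.1 (hY x hx).2, mul_inv_cancel_right]
  have e2 : k⁻¹ * x * k = k * x * k⁻¹ := by
    have h1 : t * (v * (k * x * k⁻¹) * v⁻¹) * t⁻¹ = v * (k⁻¹ * x * k) * v⁻¹ := by
      calc t * (v * (k * x * k⁻¹) * v⁻¹) * t⁻¹ = (t * v * t⁻¹) *
            ((t * k * t⁻¹) * (t * x * t⁻¹) * (t * k * t⁻¹)⁻¹) * (t * v * t⁻¹)⁻¹ := by group
        _ = v * (k⁻¹ * x * k) * v⁻¹ := by rw [hvt, hk.2, hxt]; group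
    rw [e, hyt, ← e] at h1
    exact (mul_left_cancel (mul_right_cancel h1)).symm
  have hcm : Commute (k * k) x := by
    show k * k * x = x * (k * k)
    calc k * k * x = k * (k * x * k⁻¹) * k := by group
      _ = k * (k⁻¹ * x * k) * k := by rw [e2]
      _ = x * (k * k) := by group
  have hc2 : Commute k x := by
    have := hcm.pow_left (halfExp (twoPoint G a t))
    rwa [sqrt_of_sq hS.odd_card hk.1] at this
  rw [← e, hc2.eq, mul_inv_cancel_right]

end CfsgLib.RankOne
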